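import Mathlib
import Cfsg.Agent.UnitFive.Check
import Cfsg.Agent.HSFifty.Data

/-! The permutation group on 50 points and the matrix identities behind it. -/

set_option autoImplicit false
set_option maxRecDepth 10000

namespace CfsgLib.HSFifty

open CfsgLib.UnitFive

/-- The first inverse table, by search. -/
def invTab (p : Fin 50 → Fin 50) (i : Fin 50) : Fin 50 :=
  ((List.finRange 50).find? fun j => decide (p j = i)).getD 0

/-- The first generator. -/
def gR : Equiv.Perm (Fin 50) where
  toFun := permR
  invFun := invTab permR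
  left_inv := by decide +kernel
  right_inv := by decide +kernel

/-- The second generator. -/
def gH : Equiv.Perm (Fin 50) where
  toFun := permH
  invFun := invTab permH
  left_inv := by decide +kernel
  right_inv := by decide +kernel

/-- The group of the 50 points. -/
def fiftyGroup : Subgroup (Equiv.Perm (Fin 50)) := Subgroup.closure {gR, gH}

theorem gR_mem : gR ∈ fiftyGroup := Subgroup.subset_closure (by simp)

theorem gH_mem : gH ∈ fiftyGroup := Subgroup.subset_closure (by simp)

/-- A word in the generators. -/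
def wordPerm : List Bool → Equiv.Perm (Fin 50)
  | [] => 1
  | b :: w => (if b then gH else gR) * wordPerm w

theorem wordPerm_mem : ∀ w, wordPerm w ∈ fiftyGroup
  | [] => one_mem _
  | b :: w => by
    rw [wordPerm]
    refine mul_mem ?_ (wordPerm_mem w)
    cases b
    · exact gR_mem
    · exact gH_mem

theorem tree_ok : ∀ i : Fin 50, i ≠ 0 → (treeStep i).1 < i ∧
    (if (treeStep i).2 then gH else gR) (treeStep i).1 = i := by decide +kernel

theorem exists_to (i : Fin 50) : ∃ g ∈ fiftyGroup, g 0 = i := by
  induction i using WellFoundedLT.induction with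
  | _ i ih =>
    by_cases h0 : i = 0
    · exact ⟨1, one_mem _, h0.symm⟩
    · obtain ⟨hlt, he⟩ := tree_ok i h0
      obtain ⟨g, hg, hg0⟩ := ih _ hlt
      refine ⟨(if (treeStep i).2 then gH else gR) * g, mul_mem ?_ hg, ?_⟩
      · split_ifs
        · exact gH_mem
        · exact gR_mem
      · rw [Equiv.Perm.mul_apply, hg0, he]

theorem word_facts : wordPerm word7 ^ 7 = 1 ∧ wordPerm word7 ≠ 1 ∧ wordPerm word8 ^ 8 = 1 ∧
    wordPerm word8 ^ 4 ≠ 1 ∧ wordPerm word3 ^ 6 = 1 ∧ wordPerm word3 ^ 2 ≠ 1 := by
  decide +kernel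

theorem fiftyGroup_large : 4200 ≤ Nat.card fiftyGroup := by
  obtain ⟨a1, a2, b1, b2, c1, c2⟩ := word_facts
  haveI : Fact (Nat.Prime 7) := ⟨by norm_num⟩
  haveI : Fact (Nat.Prime 2) := ⟨Nat.prime_two⟩
  haveI : Fact (Nat.Prime 3) := ⟨Nat.prime_three⟩
  have h7 : 7 ∣ Nat.card fiftyGroup := by
    rw [← orderOf_eq_prime a1 a2]
    exact Subgroup.orderOf_dvd_natCard _ (wordPerm_mem _)
  have h8 : 8 ∣ Nat.card fiftyGroup := by
    have h : orderOf (wordPerm word8) = 8 := orderOf_eq_prime_pow (p := 2) (n := 2) b2 b1
    rw [← h]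
    exact Subgroup.orderOf_dvd_natCard _ (wordPerm_mem _)
  have h3 : 3 ∣ Nat.card fiftyGroup := by
    have h : orderOf (wordPerm word3 ^ 2) = 3 := orderOf_eq_prime (by rw [← pow_mul]; exact c1) c2
    rw [← h]
    exact Subgroup.orderOf_dvd_natCard _ (pow_mem (wordPerm_mem _) _)
  have h50 : 50 ∣ Nat.card fiftyGroup := by
    have horb : MulAction.orbit fiftyGroup (0 : Fin 50) = Set.univ :=
      Set.eq_univ_of_forall fun i => by
        obtain ⟨g, hg, h⟩ := exists_to i
        exact ⟨⟨g, hg⟩, h⟩
    have h := Subgroup.index_dvd_card (MulAction.stabilizer fiftyGroup (0 : Fin 50))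
    rwa [MulAction.index_stabilizer, horb, Set.ncard_univ, Nat.card_eq_fintype_card,
      Fintype.card_fin] at h
  exact Nat.le_of_dvd Nat.card_pos (show 4200 ∣ Nat.card fiftyGroup by omega)

theorem rep_det : ∀ j : Fin 50, (repMat j).det = 1 := by
  simp only [Matrix.det_fin_three]
  decide +kernel

theorem matR_det : matR.det = 1 := by rw [Matrix.det_fin_three]; decide +kernel

theorem matH_det : matH.det = 1 := by rw [Matrix.det_fin_three]; decide +kernel

theorem rep_unitary : ∀ l : Fin 50, ∀ i j : Fin 3,
    ∑ k, repMat l k i *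
      (repMat l k j * repMat l k j * repMat l k j * repMat l k j * repMat l k j) =
        if i = j then 1 else 0 := by
  decide +kernel

theorem matR_unitary : ∀ i j : Fin 3,
    ∑ k, matR k i * (matR k j * matR k j * matR k j * matR k j * matR k j) =
      if i = j then 1 else 0 := by
  decide +kernel

theorem matH_unitary : ∀ i j : Fin 3,
    ∑ k, matH k i * (matH k j * matH k j * matH k j * matH k j * matH k j) =
      if i = j then 1 else 0 := by
  decide +kernel

theorem certR_ok : ∀ j : Fin 50,
    matR * repMat j = repMat (gR j) * (nodes (certR j).1 * nodes (certR j).2) := by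
  decide +kernel

theorem certH_ok : ∀ j : Fin 50,
    matH * repMat j = repMat (gH j) * (nodes (certH j).1 * nodes (certH j).2) := by
  decide +kernel

theorem separated_ok : ∀ j : Fin 50, j ≠ 0 → ∀ i : Fin 105, ∃ a b : Fin 3,
    Matrix.mulVec (repMat j) (orbVec (sepIdx j)) a * Matrix.mulVec (repMat 0) (orbVec i) b -
      Matrix.mulVec (repMat j) (orbVec (sepIdx j)) b * Matrix.mulVec (repMat 0) (orbVec i) a ≠
        0 := by
  decide +kernel

end CfsgLib.HSFifty
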