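import Mathlib
import Cfsg.Agent.HSFifty.Check
import Cfsg.Agent.HSGraph.SporHS
import Cfsg.Agent.LeechTriples.HSTransfer
import Cfsg.Agent.LeechTriples.Perm
import Cfsg.Agent.Leech.Co2Simple

/-! The standard configuration: the two elements moving the 50 points as prescribed, and the size of
the stabiliser. -/

set_option autoImplicit false
set_option linter.style.haveILetI false
set_option maxRecDepth 10000

namespace CfsgLib.HSFifty

open Cfsg CfsgLib.Leech CfsgLib.LeechTriples
open scoped Pointwise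

/-- The vectors meeting the two given ones in 16 and -24. -/
def set352 (v w : leechLattice) : Set leechLattice :=
  {x | sqNorm (x : GolayPt → ℤ) = 32 ∧ dotInt (v : GolayPt → ℤ) (x : GolayPt → ℤ) = 16 ∧
    dotInt (w : GolayPt → ℤ) (x : GolayPt → ℤ) = -24}

theorem mem_set352 {v w x : leechLattice} :
    x ∈ set352 v w ↔ nrm x = 32 ∧ ip v x = 16 ∧ ip w x = -24 := Iff.rfl

theorem partner_bounds {v w x : leechLattice} (hv : nrm v = 48) (hw : nrm w = 48)
    (hvw : ip v w = -32) (hx : nrm x = 32) (hwx : ip w x = -24) :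
    nrm (-w - x) = 32 ∧ ip w (-w - x) = -24 ∧ ip v (-w - x) = 32 - ip v x ∧
      (ip v x = 8 ∨ ip v x = 16 ∨ ip v x = 24) := by
  have e1 : nrm (-w - x) = 32 := by
    rw [nrm_sub, nrm_neg, hw, hx, ip_comm, ip_neg_right, ip_comm, hwx]; norm_num
  have e2 : ip w (-w - x) = -24 := by
    rw [ip_sub_right, ip_neg_right, ip_self, hw, hwx]; norm_num
  have e3 : ip v (-w - x) = 32 - ip v x := by
    rw [ip_sub_right, ip_neg_right, hvw]; norm_num
  refine ⟨e1, e2, e3, ?_⟩
  have hb : ∀ y : leechLattice, nrm y = 32 → ip v y ≤ 24 := by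
    intro y hy
    have h0 : ((v - y : leechLattice) : GolayPt → ℤ) ≠ 0 := fun h => by
      have h' : v - y = 0 := Subtype.ext h
      rw [sub_eq_zero] at h'
      rw [h'] at hv; omega
    have h1 := thirtytwo_le_sqNorm (v - y).2 h0
    change 32 ≤ nrm (v - y) at h1
    rw [nrm_sub, hv, hy] at h1
    omega
  have h1 := hb x hx
  have h2 := hb _ e1
  obtain ⟨q, hq⟩ := eight_dvd_dotInt v.2 x.2
  rw [e3] at h2
  change ip v x = 8 * q at hq
  omega

theorem ncard_set352 {v w : leechLattice} (hv : nrm v = 48) (hw : nrm w = 48)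
    (hvw : ip v w = -32) : (set352 v w).ncard = 352 := by
  classical
  set N := nbrs (-w) 24 with hN
  have hNc : N.card = 552 := card_summands (by rw [nrm_neg, hw])
  have hmem : ∀ x, x ∈ N ↔ nrm x = 32 ∧ ip w x = -24 := fun x => by
    rw [hN, mem_nbrs, ip_comm, ip_neg_right, ip_comm]
    constructor <;> rintro ⟨h1, h2⟩ <;> exact ⟨h1, by omega⟩
  have h24 : (N.filter fun x => ip v x = 24).card = 100 := by
    rw [← ncard_hsSet hv hw hvw, ← Set.ncard_coe_finset]
    congr 1
    ext x
    rw [Finset.coe_filter, Set.mem_setOf_eq, hmem, hsSet, Set.mem_setOf_eq]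
    constructor
    · rintro ⟨⟨h1, h2⟩, h3⟩; exact ⟨h1, h3, h2⟩
    · rintro ⟨h1, h3, h2⟩; exact ⟨⟨h1, h2⟩, h3⟩
  have h8 : (N.filter fun x => ip v x = 8).card = 100 := by
    rw [← h24]
    refine Finset.card_nbij' (fun x => -w - x) (fun x => -w - x) ?_ ?_ (fun x _ => by simp)
      (fun x _ => by simp)
    all_goals
      intro x hx
      rw [Finset.mem_coe, Finset.mem_filter, hmem] at hx
      obtain ⟨e1, e2, e3, -⟩ := partner_bounds hv hw hvw hx.1.1 hx.1.2
      rw [Finset.mem_coe, Finset.mem_filter, hmem]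
      refine ⟨⟨e1, e2⟩, ?_⟩
      show ip v (-w - x) = _
      omega
  have h16 : set352 v w = ↑(N.filter fun x => ip v x = 16) := by
    ext x
    rw [mem_set352, Finset.coe_filter, Set.mem_setOf_eq, hmem]
    constructor
    · rintro ⟨h1, h3, h2⟩; exact ⟨⟨h1, h2⟩, h3⟩
    · rintro ⟨⟨h1, h2⟩, h3⟩; exact ⟨h1, h3, h2⟩
  rw [h16, Set.ncard_coe_finset]
  have hsplit : N.card = (N.filter fun x => ip v x = 16).card +
      ((N.filter fun x => ip v x = 8).card + (N.filter fun x => ip v x = 24).card) := by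
    rw [← Finset.card_filter_add_card_filter_not (s := N) (fun x => ip v x = 16)]
    congr 1
    rw [← Finset.card_union_of_disjoint]
    · congr 1
      ext x
      simp only [Finset.mem_filter, Finset.mem_union]
      constructor
      · rintro ⟨hx, h⟩
        obtain ⟨-, -, -, h'⟩ := partner_bounds hv hw hvw ((hmem x).1 hx).1 ((hmem x).1 hx).2
        rcases h' with e | e | e
        · exact Or.inl ⟨hx, e⟩
        · exact absurd e h
        · exact Or.inr ⟨hx, e⟩
      · rintro (⟨hx, h⟩ | ⟨hx, h⟩) <;> exact ⟨hx, by omega⟩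
    · exact Finset.disjoint_filter.2 fun x _ h h' => by omega
  omega

/-! ### The standard configuration -/

/-- The first vector. -/
abbrev v0 : leechLattice := fiveVec

/-- The sum of the two vectors. -/
abbrev c0 : leechLattice := Spor.leechU'

/-- The second vector. -/
abbrev w0 : leechLattice := c0 - v0

/-- A vector given by its list of coordinates. -/
def vecList (l : List ℤ) : GolayPt → ℤ := fun p => l.getD (ptIdx p) 0

/-- The third vector. -/
def x0 : leechLattice := ⟨vecList xList, mem_leech_of_check (by decide +kernel)⟩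

theorem low_check : ∀ i : Fin 50, CheckLeech (vecList (ptLow i)) := by decide +kernel

theorem high_check : ∀ i : Fin 50, CheckLeech (vecList (ptHigh i)) := by decide +kernel

/-- A point with product 8. -/
def lowPt (i : Fin 50) : leechLattice := ⟨vecList (ptLow i), mem_leech_of_check (low_check i)⟩

/-- A point with product 16. -/
def highPt (i : Fin 50) : leechLattice := ⟨vecList (ptHigh i), mem_leech_of_check (high_check i)⟩

theorem base_facts : nrm v0 = 48 ∧ nrm w0 = 48 ∧ ip v0 w0 = -32 ∧ nrm c0 = 32 ∧ ip c0 v0 = 16 ∧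
    nrm x0 = 32 ∧ ip v0 x0 = 16 ∧ ip w0 x0 = -24 ∧
    (nrm Spor.leechU = 32 ∧ ip c0 Spor.leechU = 0 ∧ ip v0 Spor.leechU = 24 ∧
      ip x0 Spor.leechU = 8) := by
  simp only [nrm, ip]
  decide +kernel

theorem low_facts : ∀ i : Fin 50, nrm (lowPt i) = 32 ∧ ip c0 (lowPt i) = 0 ∧
    ip v0 (lowPt i) = 24 ∧ ip x0 (lowPt i) = 8 := by
  simp only [nrm, ip]
  decide +kernel

theorem high_facts : ∀ i : Fin 50, nrm (highPt i) = 32 ∧ ip c0 (highPt i) = 0 ∧
    ip v0 (highPt i) = 24 ∧ ip x0 (highPt i) = 16 := by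
  simp only [nrm, ip]
  decide +kernel

theorem lowPt_injective : Function.Injective lowPt := by
  have h : ∀ i j : Fin 50, ptLow i = ptLow j → i = j := by decide +kernel
  have h' : ∀ i j : Fin 50, vecList (ptLow i) = vecList (ptLow j) → ptLow i = ptLow j := by
    decide +kernel
  exact fun i j e => h i j (h' i j (congrArg Subtype.val e))

theorem highPt_injective : Function.Injective highPt := by
  have h : ∀ i j : Fin 50, vecList (ptHigh i) = vecList (ptHigh j) → i = j := by
    decide +kernel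
  exact fun i j e => h i j (congrArg Subtype.val e)

theorem mem_low {y : leechLattice} (hy : y ∈ hsSet v0 w0) (h : ip x0 y = 8) :
    ∃ i, lowPt i = y := by
  classical
  have hH : Set.range lowPt ∪ Set.range highPt = hsSet v0 w0 := by
    refine Set.eq_of_subset_of_ncard_le ?_ (le_of_eq ?_) ?_
    · rintro y (⟨i, rfl⟩ | ⟨i, rfl⟩)
      · exact HSGraph.mem_hsSet'.2 ⟨(low_facts i).1, (low_facts i).2.1, (low_facts i).2.2.1⟩
      · exact HSGraph.mem_hsSet'.2 ⟨(high_facts i).1, (high_facts i).2.1, (high_facts i).2.2.1⟩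
    · rw [ncard_hsSet base_facts.1 base_facts.2.1 base_facts.2.2.1,
        Set.ncard_union_eq ?_ (Set.finite_range _) (Set.finite_range _),
        Set.ncard_range_of_injective lowPt_injective, Set.ncard_range_of_injective highPt_injective,
        Nat.card_eq_fintype_card, Fintype.card_fin]
      rw [Set.disjoint_left]
      rintro _ ⟨i, rfl⟩ ⟨j, hj⟩
      have := (low_facts i).2.2.2
      have := (high_facts j).2.2.2
      rw [hj] at this
      omega
    · exact Set.finite_of_ncard_ne_zero (by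
        rw [ncard_hsSet base_facts.1 base_facts.2.1 base_facts.2.2.1]; norm_num)
  rw [← hH] at hy
  rcases hy with hy | ⟨j, rfl⟩
  · exact hy
  · rw [(high_facts j).2.2.2] at h; omega

/-- The joint stabiliser. -/
abbrev tripleStab (v w x : leechLattice) : Subgroup Co0 :=
  MulAction.stabilizer Co0 v ⊓ MulAction.stabilizer Co0 w ⊓ MulAction.stabilizer Co0 x

theorem exists_image (g : tripleStab v0 w0 x0) (i : Fin 50) :
    ∃ j, lowPt j = g.1 • lowPt i := by
  obtain ⟨⟨hv, hw⟩, hx⟩ := g.2
  have hv' : g.1 • v0 = v0 := hv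
  have hw' : g.1 • w0 = w0 := hw
  have hx' : g.1 • x0 = x0 := hx
  obtain ⟨h1, h2, h3, h4⟩ := low_facts i
  refine mem_low ⟨?_, ?_, ?_⟩ ?_
  · exact (nrm_smul g.1 _).trans h1
  · show ip v0 (g.1 • lowPt i) = 24
    exact (congrArg (fun t => ip t (g.1 • lowPt i)) hv').symm.trans ((ip_smul g.1 _ _).trans h3)
  · show ip w0 (g.1 • lowPt i) = -24
    refine (congrArg (fun t => ip t (g.1 • lowPt i)) hw').symm.trans ((ip_smul g.1 _ _).trans ?_)
    rw [show w0 = c0 - v0 from rfl, ip_comm, ip_sub_right, ip_comm, h2, ip_comm, h3]; norm_num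
  · exact (congrArg (fun t => ip t (g.1 • lowPt i)) hx').symm.trans ((ip_smul g.1 _ _).trans h4)

/-- The image of a point. -/
noncomputable def imgFun (g : tripleStab v0 w0 x0) (i : Fin 50) : Fin 50 :=
  (exists_image g i).choose

theorem imgFun_spec (g : tripleStab v0 w0 x0) (i : Fin 50) : lowPt (imgFun g i) = g.1 • lowPt i :=
  (exists_image g i).choose_spec

/-- The action on the 50 points. -/
noncomputable def fiftyHom : tripleStab v0 w0 x0 →* Equiv.Perm (Fin 50) where
  toFun g :=
    { toFun := imgFun g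
      invFun := imgFun g⁻¹
      left_inv := fun i => lowPt_injective (by
        rw [imgFun_spec, imgFun_spec, Subgroup.coe_inv, inv_smul_smul])
      right_inv := fun i => lowPt_injective (by
        rw [imgFun_spec, imgFun_spec, Subgroup.coe_inv, smul_inv_smul]) }
  map_one' := Equiv.ext fun i => lowPt_injective (by
    rw [Equiv.Perm.one_apply]
    show lowPt (imgFun 1 i) = _
    rw [imgFun_spec, Subgroup.coe_one, one_smul])
  map_mul' g h := Equiv.ext fun i => lowPt_injective (by
    show lowPt (imgFun (g * h) i) = lowPt (imgFun g (imgFun h i))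
    rw [imgFun_spec, imgFun_spec, imgFun_spec, Subgroup.coe_mul, mul_smul])

theorem fiftyHom_eq {g : tripleStab v0 w0 x0} {p : Equiv.Perm (Fin 50)}
    (h : ∀ i, g.1 • lowPt i = lowPt (p i)) : fiftyHom g = p :=
  Equiv.ext fun i => lowPt_injective ((imgFun_spec g i).trans (h i))

/-! ### The two elements -/

/-- A permutation given by a table and its inverse table. -/
def tabPerm (t t' : List ℕ) (h1 : ∀ p : GolayPt, idxPt (t'.getD (ptIdx (idxPt (t.getD (ptIdx p) 0))) 0) = p)
    (h2 : ∀ p : GolayPt, idxPt (t.getD (ptIdx (idxPt (t'.getD (ptIdx p) 0))) 0) = p) :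
    Equiv.Perm GolayPt where
  toFun p := idxPt (t.getD (ptIdx p) 0)
  invFun p := idxPt (t'.getD (ptIdx p) 0)
  left_inv := h1
  right_inv := h2

theorem perm_mem_of_check (σ : Equiv.Perm GolayPt)
    (h : ∀ t s : ZMod 23, (∑ p, qrWord s p * qrWord t (σ.symm p)) = (0 : ZMod 2) ∧
      (∑ p, qrWord t (σ.symm p)) = (0 : ZMod 2)) : σ ∈ M24 := by
  refine perm_mem_M24 _ fun t => (mem_code_iff _).2 ⟨fun s => ?_, ?_⟩
  · rw [dot₂_apply]; exact (h t s).1
  · rw [dot₂_apply]; simp only [Pi.one_apply, one_mul]; exact (h t 0).2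

def pA : Equiv.Perm GolayPt := tabPerm tabA tabAInv (by decide +kernel) (by decide +kernel)
def pB : Equiv.Perm GolayPt := tabPerm tabB tabBInv (by decide +kernel) (by decide +kernel)
def pC : Equiv.Perm GolayPt := tabPerm tabC tabCInv (by decide +kernel) (by decide +kernel)
def pR : Equiv.Perm GolayPt := tabPerm tabR tabRInv (by decide +kernel) (by decide +kernel)

theorem pA_mem : pA ∈ M24 := perm_mem_of_check _ (by decide +kernel)
theorem pB_mem : pB ∈ M24 := perm_mem_of_check _ (by decide +kernel)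
theorem pC_mem : pC ∈ M24 := perm_mem_of_check _ (by decide +kernel)
theorem pR_mem : pR ∈ M24 := perm_mem_of_check _ (by decide +kernel)

/-- The permutation generator. -/
def eR : Co0 := permHom ⟨pR, pR_mem⟩

/-- The generator moving the frame. -/
def eH : Co0 := permHom ⟨pA, pA_mem⟩ * xi * permHom ⟨pB, pB_mem⟩ * xi * permHom ⟨pC, pC_mem⟩

theorem gen_fix : ((eR • v0 : leechLattice) : GolayPt → ℤ) = (v0 : GolayPt → ℤ) ∧
    ((eR • w0 : leechLattice) : GolayPt → ℤ) = (w0 : GolayPt → ℤ) ∧
    ((eR • x0 : leechLattice) : GolayPt → ℤ) = (x0 : GolayPt → ℤ) ∧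
    ((eH • v0 : leechLattice) : GolayPt → ℤ) = (v0 : GolayPt → ℤ) ∧
    ((eH • w0 : leechLattice) : GolayPt → ℤ) = (w0 : GolayPt → ℤ) ∧
    ((eH • x0 : leechLattice) : GolayPt → ℤ) = (x0 : GolayPt → ℤ) := by
  decide +kernel

theorem gen_moves : ∀ i : Fin 50,
    ((eR • lowPt i : leechLattice) : GolayPt → ℤ) = (lowPt (gR i) : GolayPt → ℤ) ∧
    ((eH • lowPt i : leechLattice) : GolayPt → ℤ) = (lowPt (gH i) : GolayPt → ℤ) := by
  decide +kernel

theorem fiftyGroup_le_range : fiftyGroup ≤ fiftyHom.range := by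
  obtain ⟨a1, a2, a3, b1, b2, b3⟩ := gen_fix
  refine (Subgroup.closure_le _).2 ?_
  rintro _ (rfl | rfl)
  · exact ⟨⟨eR, ⟨Subtype.ext a1, Subtype.ext a2⟩, Subtype.ext a3⟩,
      fiftyHom_eq fun i => Subtype.ext (gen_moves i).1⟩
  · exact ⟨⟨eH, ⟨Subtype.ext b1, Subtype.ext b2⟩, Subtype.ext b3⟩,
      fiftyHom_eq fun i => Subtype.ext (gen_moves i).2⟩

/-! ### The orbit -/

/-- The support of the third vector. -/
def octX : Finset GolayPt := Finset.univ.filter fun i => (x0 : GolayPt → ℤ) i ≠ 0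

theorem x0_shape : (∀ i, (x0 : GolayPt → ℤ) i = if i ∈ octX then 2 else 0) ∧ octX.card = 8 ∧
    (none : GolayPt) ∉ octX ∧ (some 0 : GolayPt) ∈ octX ∧ ∃ q ∈ octX, some 0 ≠ q := by
  decide +kernel

theorem octX_mem : octX ∈ octads := by
  rcases leech_cases x0.2 with ⟨a, ha, hc, -⟩ | ⟨a, ha, -, -⟩
  · refine ⟨⟨red a, hc, ?_⟩, x0_shape.2.1⟩
    ext i
    rw [mem_support₂_red]
    have h := x0_shape.1 i
    rw [ha i] at h
    split_ifs at h with hi <;> simp only [hi, iff_true, iff_false] <;> omega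
  · have := ha none
    have h := x0_shape.1 none
    split_ifs at h <;> omega

/-- Octads through `0` avoiding `∞`. -/
noncomputable def sideOcts : Finset (Finset GolayPt) :=
  Golay.octadSets.filter fun O => (some 0 : GolayPt) ∈ O ∧ (none : GolayPt) ∉ O

theorem card_sideOcts : sideOcts.card = 176 := by
  classical
  have h1 := Golay.octads_through_one {(some 0 : GolayPt)} (Finset.card_singleton _)
  have h2 := Golay.octads_through_two {(some 0 : GolayPt), none} (Finset.card_pair (by simp))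
  rw [← Finset.card_filter_add_card_filter_not (s := Golay.octadSets.filter _)
    (fun O => (none : GolayPt) ∈ O), Finset.filter_filter, Finset.filter_filter] at h1
  simp only [Finset.singleton_subset_iff] at h1
  simp only [Finset.insert_subset_iff, Finset.singleton_subset_iff] at h2
  rw [h2] at h1
  have : sideOcts.card + 77 = 253 := by rw [sideOcts]; omega
  omega

theorem card_orbit :
    176 < (MulAction.orbit (pairStab v0 c0) x0).ncard ∧
      MulAction.orbit (pairStab v0 c0) x0 ⊆ set352 v0 w0 := by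
  classical
  obtain ⟨f1, f2, f3, f4, f5, f6, f7, f8, u1, u2, u3, u4⟩ := base_facts
  have hsub : MulAction.orbit (pairStab v0 c0) x0 ⊆ set352 v0 w0 := by
    rintro _ ⟨g, rfl⟩
    have hv : g.1 • v0 = v0 := g.2.1
    have hw : g.1 • w0 = w0 := by
      rw [show w0 = c0 - v0 from rfl, co0_map_sub, hv, show g.1 • c0 = c0 from g.2.2]
    refine mem_set352.2 ⟨(nrm_smul g.1 x0).trans f6, ?_, ?_⟩
    · show ip v0 (g.1 • x0) = 16
      exact (congrArg (fun t => ip t (g.1 • x0)) hv).symm.trans ((ip_smul g.1 _ _).trans f7)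
    · show ip w0 (g.1 • x0) = -24
      exact (congrArg (fun t => ip t (g.1 • x0)) hw).symm.trans ((ip_smul g.1 _ _).trans f8)
  refine ⟨?_, hsub⟩
  have hex : ∀ O ∈ sideOcts, ∃ σ : M24, σ.1 none = none ∧ σ.1 (some 0) = some 0 ∧
      σ.1 • octX = O := by
    intro O hO
    obtain ⟨hO1, hO2, hO3⟩ := Finset.mem_filter.1 hO
    rw [Golay.mem_octadSets] at hO1
    obtain ⟨-, -, hn, h0, q, hq, hqne⟩ := x0_shape
    obtain ⟨q', hq', hqne'⟩ : ∃ q' ∈ O, q' ≠ some 0 :=
      Finset.exists_mem_ne (by rw [hO1.2]; norm_num) _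
    obtain ⟨σ, hσ, s0, -, s2, sO⟩ := exists_perm_two_out hqne octX_mem h0 hq hn hqne'.symm hO1 hO2 hq' hO3
    exact ⟨⟨σ, hσ⟩, s2, s0, sO⟩
  choose σ hσn hσ0 hσO using hex
  have hfix : ∀ O hO, permHom (σ O hO) • v0 = v0 ∧ permHom (σ O hO) • c0 = c0 ∧
      permHom (σ O hO) • Spor.leechU = Spor.leechU := fun O hO =>
    ⟨perm_fix_pattern (fun j hj => by simp [fiveVec_apply, oddVec, single]) (hσn O hO) (hσ0 O hO),
      perm_fix_pattern (fun j hj => by simp [leechU'_apply, hj, (show (1 : ZMod 23) ≠ 0 by decide)]) (hσn O hO) (hσ0 O hO),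
      perm_fix_pattern (fun j hj => by simp [leechU_apply, hj, (show (1 : ZMod 23) ≠ 0 by decide)]) (hσn O hO) (hσ0 O hO)⟩
  let img : ∀ O ∈ sideOcts, leechLattice := fun O hO => permHom (σ O hO) • x0
  have himg : ∀ O hO i, (img O hO : GolayPt → ℤ) i = if i ∈ O then 2 else 0 := fun O hO i => by
    rw [show img O hO = permHom (σ O hO) • x0 from rfl, permHom_apply, x0_shape.1]
    conv_rhs => rw [← hσO O hO]
    congr 1
    rw [← Finset.inv_smul_mem_iff]
    rfl
  -- one more point
  have hU : Spor.leechU ∈ hsSet v0 w0 := HSGraph.mem_hsSet'.2 ⟨u1, u2, u3⟩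
  obtain ⟨g, g1, g2, g3⟩ := hsSet_transitive f1 f2 f3 hU
    (HSGraph.mem_hsSet'.2 ⟨(high_facts 0).1, (high_facts 0).2.1, (high_facts 0).2.2.1⟩)
  have gc : g • c0 = c0 := by
    have := congrArg₂ (· + ·) g1 g2
    rw [← co0_map_add] at this
    simpa [w0] using this
  have hexU : ip Spor.leechU (g⁻¹ • x0) = 16 := by
    rw [← ip_smul g, g3, smul_inv_smul, ip_comm, (high_facts 0).2.2.2]
  set T : Set leechLattice := {y | ∃ O, ∃ hO : O ∈ sideOcts, img O hO = y}
  have hT : T.ncard = 176 := by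
    rw [← card_sideOcts, ← Set.ncard_coe_finset]
    refine (Set.ncard_congr (t := T) (fun O hO => img O hO) (fun O hO => ⟨O, hO, rfl⟩) ?_ ?_).symm
    · intro O O' hO hO' h
      ext i
      have := congrFun (congrArg Subtype.val h) i
      rw [himg, himg] at this
      split_ifs at this with a b b <;> simp_all
    · rintro _ ⟨O, hO, rfl⟩
      exact ⟨O, hO, rfl⟩
  have hnot : g⁻¹ • x0 ∉ T := by
    rintro ⟨O, hO, h⟩
    rw [← h, show img O hO = permHom (σ O hO) • x0 from rfl] at hexU
    rw [← (hfix O hO).2.2, ip_smul, ip_comm, u4] at hexU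
    norm_num at hexU
  have hfinT : T.Finite := Set.finite_of_ncard_ne_zero (by omega)
  have hle : insert (g⁻¹ • x0) T ⊆ MulAction.orbit (pairStab v0 c0) x0 := by
    rintro y (rfl | ⟨O, hO, rfl⟩)
    · exact ⟨⟨g⁻¹, inv_smul_eq_iff.2 g1.symm, inv_smul_eq_iff.2 gc.symm⟩, rfl⟩
    · exact ⟨⟨permHom (σ O hO), (hfix O hO).1, (hfix O hO).2.1⟩, rfl⟩
  have h := Set.ncard_le_ncard hle
    ((Set.finite_of_ncard_ne_zero (by rw [ncard_set352 f1 f2 f3]; norm_num)).subset hsub)
  rw [Set.ncard_insert_of_notMem hnot hfinT, hT] at h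
  omega

theorem tripleStab_data (hΓ : Nat.card fiftyGroup = 126000) :
    MulAction.orbit (pairStab v0 c0) x0 = set352 v0 w0 ∧
      Nonempty (tripleStab v0 w0 x0 ≃* fiftyGroup) := by
  haveI : Finite Co0 := finite_co0
  obtain ⟨f1, f2, f3, f4, f5, -⟩ := base_facts
  obtain ⟨hlt, hsub⟩ := card_orbit
  have hfin : (set352 v0 w0).Finite :=
    Set.finite_of_ncard_ne_zero (by rw [ncard_set352 f1 f2 f3]; norm_num)
  have hle : (MulAction.orbit (pairStab v0 c0) x0).ncard ≤ 352 := by
    rw [← ncard_set352 f1 f2 f3]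
    exact Set.ncard_le_ncard hsub hfin
  have hcard : Nat.card (pairStab v0 c0) = 44352000 := HSGraph.card_hsStab f1 f4 f5
  have hequiv : Nat.card (MulAction.stabilizer (pairStab v0 c0) x0) =
      Nat.card (tripleStab v0 w0 x0) := by
    refine Nat.card_congr
      { toFun := fun g => ⟨g.1.1, ⟨g.1.2.1, ?_⟩, g.2⟩
        invFun := fun g => ⟨⟨g.1, g.2.1.1, ?_⟩, g.2.2⟩
        left_inv := fun _ => rfl
        right_inv := fun _ => rfl }
    · show g.1.1 • (c0 - v0) = c0 - v0
      rw [co0_map_sub, show g.1.1 • c0 = c0 from g.1.2.2, show g.1.1 • v0 = v0 from g.1.2.1]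
    · have e1 : g.1 • v0 = v0 := g.2.1.1
      have e2 : g.1 • w0 = w0 := g.2.1.2
      show g.1 • c0 = c0
      calc g.1 • c0 = g.1 • (v0 + w0) := by rw [add_sub_cancel]
        _ = v0 + w0 := by rw [co0_map_add, e1, e2]
        _ = c0 := add_sub_cancel _ _
  have hidx := Subgroup.index_mul_card (MulAction.stabilizer (pairStab v0 c0) x0)
  rw [MulAction.index_stabilizer, hcard, hequiv] at hidx
  have hrange : 126000 ∣ Nat.card fiftyHom.range :=
    hΓ ▸ Subgroup.card_dvd_of_le fiftyGroup_le_range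
  obtain ⟨k, hk⟩ : 126000 ∣ Nat.card (tripleStab v0 w0 x0) :=
    hrange.trans (Subgroup.card_range_dvd fiftyHom)
  rw [hk] at hidx
  have hk1 : k = 1 := by
    rcases Nat.eq_zero_or_pos k with h | h
    · subst h; simp at hidx
    · by_contra hne
      have h2 : 2 ≤ k := by omega
      have := Nat.mul_le_mul (show 177 ≤ (MulAction.orbit (pairStab v0 c0) x0).ncard by omega)
        (Nat.mul_le_mul_left 126000 h2)
      omega
  subst hk1
  rw [mul_one] at hk hidx
  have horb : (MulAction.orbit (pairStab v0 c0) x0).ncard = 352 := by linarith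
  refine ⟨Set.eq_of_subset_of_ncard_le hsub (by rw [horb, ncard_set352 f1 f2 f3]) hfin, ?_⟩
  have hr : fiftyHom.range = fiftyGroup :=
    (Subgroup.eq_of_le_of_card_ge fiftyGroup_le_range (by
      rw [hΓ, ← hk]; exact Nat.le_of_dvd Nat.card_pos (Subgroup.card_range_dvd fiftyHom))).symm
  have hbij : Function.Bijective fiftyHom.rangeRestrict :=
    (Nat.bijective_iff_surjective_and_card _).2 ⟨fiftyHom.rangeRestrict_surjective, by
      rw [hk, hr, hΓ]⟩
  exact ⟨(MulEquiv.ofBijective _ hbij).trans (MulEquiv.subgroupCongr hr)⟩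

end CfsgLib.HSFifty
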