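import Mathlib
import Cfsg.Agent.HSFifty.Check
import Cfsg.Agent.UnitFive.Subgroup
import Cfsg.Agent.Classical.Unitary.Simple
import Cfsg.Agent.S2149

/-! `PSU₃(5)` is the group of the 50 points: it permutes the images of a set of 105 lines. -/

set_option autoImplicit false
set_option linter.style.haveILetI false

namespace CfsgLib.HSFifty

open Cfsg CfsgLib.UnitFive CfsgLib.Unitary
open scoped Classical

variable {F : Type*} [Field F] [Fintype F]

/-- The images of a set of vectors. -/
def actSet (g : ↥(SU 3 F 5)) (S : Set (Fin 3 → F)) : Set (Fin 3 → F) := sv g '' S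

theorem actSet_mul (g h : ↥(SU 3 F 5)) (S : Set (Fin 3 → F)) :
    actSet (g * h) S = actSet g (actSet h S) := by
  simp only [actSet, Set.image_image, sv_mul]

theorem actSet_one (S : Set (Fin 3 → F)) : actSet 1 S = S := by
  simp only [actSet, sv_one, Set.image_id']

theorem matF_sv (g : ↥(SU 3 F 5)) (x : Fin 3 → F) : sv g x = (matF g).mulVec x := rfl

set_option maxHeartbeats 2000000 in
theorem psu_fifty (hF : Fintype.card F = 25) :
    Nat.card fiftyGroup = 126000 ∧ Nonempty (PSU 3 F 5 ≃* fiftyGroup) := by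
  have hF' := card_F hF
  obtain ⟨φ, hφ⟩ := exists_embedding hF
  have hmap : Function.Injective (φ.mapMatrix : M25 → Matrix (Fin 3) (Fin 3) F) :=
    fun X Y h => Matrix.ext fun i j => hφ (congrFun (congrFun h i) j)
  obtain ⟨A, hA⟩ := exists_SU_map hF φ genA genA_det genA_unitary
  obtain ⟨B, hB⟩ := exists_SU_map hF φ genB genB_det genB_unitary
  obtain ⟨MR, hMR⟩ := exists_SU_map hF φ matR matR_det matR_unitary
  obtain ⟨MH, hMH⟩ := exists_SU_map hF φ matH matH_det matH_unitary
  choose rep hrep using fun j : Fin 50 => exists_SU_map hF φ (repMat j) (rep_det j) (rep_unitary j)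
  set O : Set (Fin 3 → F) := {x | OnOrbit φ x} with hO
  -- the generators of the stabiliser preserve the lines
  have hgen : ∀ (g : ↥(SU 3 F 5)) (M : M25) (img : Fin 105 → Fin 105 × R25),
      matF g = φ.mapMatrix M → (∀ i, M.mulVec (orbVec i) = (img i).2 • orbVec (img i).1) →
      (∀ i, (img i).2 ≠ 0) → actSet g O = O := by
    intro g M img hg himg hne
    refine Set.eq_of_subset_of_ncard_le ?_ (le_of_eq ?_) (Set.toFinite _)
    · rintro _ ⟨x, ⟨i, c, hc, rfl⟩, rfl⟩
      refine ⟨(img i).1, c * φ (img i).2,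
        mul_ne_zero hc (fun h => hne i (hφ (by rw [h, map_zero]))), ?_⟩
      rw [sv_smul, mul_smul]
      congr 1
      funext k
      have h1 : sv g (φ ∘ orbVec i) k = φ (M.mulVec (orbVec i) k) := by
        rw [RingHom.map_mulVec]
        show (matF g).mulVec _ k = _
        rw [hg]; rfl
      rw [h1, himg i]
      simp [map_mul]
    · exact (Set.ncard_image_of_injective _ fun x y h => by
        have := congrArg (sv g⁻¹) h
        rwa [← sv_mul, ← sv_mul, inv_mul_cancel, sv_one, sv_one] at this).symm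
  have hnodes : ∀ i, ∃ g, matF g = φ.mapMatrix (nodes i) ∧ actSet g O = O := by
    intro i
    induction i using WellFoundedLT.induction with
    | _ i ih =>
      by_cases h0 : i = 0
      · exact ⟨1, by rw [h0, nodes_zero, map_one]; rfl, actSet_one _⟩
      · obtain ⟨hlt, he⟩ := nodes_step i h0
        obtain ⟨g, hg, hgO⟩ := ih _ hlt
        rw [he, map_mul]
        cases (steps i).2
        · exact ⟨g * B, by rw [matF_mul, hg, hB]; rfl, by
            rw [actSet_mul, hgen B genB imgB hB genB_orbit fun i => (img_ne_zero i).2, hgO]⟩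
        · exact ⟨g * A, by rw [matF_mul, hg, hA]; rfl, by
            rw [actSet_mul, hgen A genA imgA hA genA_orbit fun i => (img_ne_zero i).1, hgO]⟩
  choose el hel helO using hnodes
  let S : Fin 50 → Set (Fin 3 → F) := fun j => actSet (rep j) O
  have hstep : ∀ (g : ↥(SU 3 F 5)) (M : M25) (p : Equiv.Perm (Fin 50))
      (cert : Fin 50 → Fin 308 × Fin 308), matF g = φ.mapMatrix M →
      (∀ j, M * repMat j = repMat (p j) * (nodes (cert j).1 * nodes (cert j).2)) →
      ∀ j, actSet g (S j) = S (p j) := by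
    intro g M p cert hg hc j
    have he : g * rep j = rep (p j) * (el (cert j).1 * el (cert j).2) := matF_injective (by
      rw [matF_mul, matF_mul, matF_mul, hg, hrep, hrep, hel, hel, ← map_mul, ← map_mul, ← map_mul,
        hc])
    show actSet g (actSet (rep j) O) = actSet (rep (p j)) O
    rw [← actSet_mul, he, actSet_mul, actSet_mul, helO, helO]
  -- elements permuting the 50 sets
  let T : Submonoid (↥(SU 3 F 5) × Equiv.Perm (Fin 50)) :=
    { carrier := {q | ∀ j, actSet q.1 (S j) = S (q.2 j)}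
      one_mem' := fun j => actSet_one _
      mul_mem' := fun {a b} ha hb j => by
        show actSet (a.1 * b.1) (S j) = S (a.2 (b.2 j))
        rw [actSet_mul, hb, ha] }
  let TG : Subgroup (↥(SU 3 F 5) × Equiv.Perm (Fin 50)) :=
    { T with
      inv_mem' := fun {g} hg => by
        rw [inv_eq_of_mul_eq_one_right (b := g ^ (orderOf g - 1))]
        · exact T.pow_mem hg _
        · rw [← pow_succ', Nat.sub_add_cancel (orderOf_pos g), pow_orderOf_eq_one] }
  have hTR : (MR, gR) ∈ TG := hstep MR matR gR certR hMR certR_ok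
  have hTH : (MH, gH) ∈ TG := hstep MH matH gH certH hMH certH_ok
  have hpair : ∀ p ∈ fiftyGroup, ∃ g, (g, p) ∈ TG := by
    intro p hp
    have h : fiftyGroup ≤ TG.map (MonoidHom.snd ↥(SU 3 F 5) (Equiv.Perm (Fin 50))) :=
      (Subgroup.closure_le _).2 (by
        rintro _ (rfl | rfl)
        · exact ⟨_, hTR, rfl⟩
        · exact ⟨_, hTH, rfl⟩)
    obtain ⟨⟨g, p'⟩, hg, rfl⟩ := h hp
    exact ⟨g, hg⟩
  have hsep : ∀ j, S j = S 0 → j = 0 := by
    intro j hj
    by_contra hne
    have hx : sv (rep j) (φ ∘ orbVec (sepIdx j)) ∈ S 0 :=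
      hj ▸ ⟨_, ⟨sepIdx j, 1, one_ne_zero, (one_smul F _).symm⟩, rfl⟩
    obtain ⟨_, ⟨i, c, -, rfl⟩, hx⟩ := hx
    obtain ⟨a, b, hab⟩ := separated_ok j hne i
    refine hab (hφ ?_)
    have hv : ∀ (l : Fin 50) (v : Fin 3 → R25) (k : Fin 3),
        sv (rep l) (φ ∘ v) k = φ ((repMat l).mulVec v k) := fun l v k => by
      rw [RingHom.map_mulVec, matF_sv, hrep]; rfl
    have ea := congrFun hx a
    have eb := congrFun hx b
    rw [sv_smul, Pi.smul_apply, hv, hv, smul_eq_mul] at ea eb
    rw [map_sub, map_mul, map_mul, map_zero, ← ea, ← eb]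
    ring
  have hSinj : Function.Injective S := by
    intro j k hjk
    obtain ⟨p, hp, hpj⟩ := exists_to j
    obtain ⟨g, hg⟩ := hpair p hp
    have hgi := TG.inv_mem hg
    have h1 : actSet g⁻¹ (S j) = S 0 := by
      have := hgi j
      simp only [Prod.fst_inv, Prod.snd_inv] at this
      rwa [show (p⁻¹ : Equiv.Perm (Fin 50)) j = 0 by
        rw [Equiv.Perm.inv_eq_iff_eq]; exact hpj.symm] at this
    have h2 : actSet g⁻¹ (S k) = S ((p⁻¹ : Equiv.Perm (Fin 50)) k) := hgi k
    rw [← hjk, h1] at h2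
    have h3 := hsep _ h2.symm
    rw [Equiv.Perm.inv_eq_iff_eq] at h3
    rw [h3, hpj]
  have huniq : ∀ {g p p'}, (g, p) ∈ TG → (g, p') ∈ TG → p = p' := fun {g p p'} h h' =>
    Equiv.ext fun j => hSinj ((h j).symm.trans (h' j))
  have hcenter : ∀ z ∈ Subgroup.center ↥(SU 3 F 5), (z, (1 : Equiv.Perm (Fin 50))) ∈ TG := by
    intro z hz j
    obtain ⟨a, ha⟩ := (mem_center_SU_iff hF' (by norm_num) z).1 hz
    have ha0 : a ≠ 0 := by
      intro h0
      have hdet := (z : Matrix.SpecialLinearGroup (Fin 3) F).2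
      rw [ha, h0, map_zero, Matrix.det_zero] at hdet
      exact zero_ne_one hdet
    have hzx : ∀ x, sv z x = a • x := fun x => by
      rw [matF_sv, show matF z = Matrix.scalar (Fin 3) a from ha, Matrix.scalar_apply]
      funext k
      simp [Matrix.mulVec_diagonal]
    have hzO : actSet z O = O := by
      refine Set.eq_of_subset_of_ncard_le ?_ (le_of_eq ?_) (Set.toFinite _)
      · rintro _ ⟨x, ⟨i, c, hc, rfl⟩, rfl⟩
        exact ⟨i, a * c, mul_ne_zero ha0 hc, by rw [hzx, smul_smul]⟩
      · exact (Set.ncard_image_of_injective _ fun x y h => by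
          rw [hzx, hzx] at h
          exact smul_right_injective _ ha0 h).symm
    show actSet z (actSet (rep j) O) = actSet (rep j) O
    rw [← actSet_mul, ← Subgroup.mem_center_iff.1 hz (rep j), actSet_mul, hzO]
  let W : Subgroup ↥(SU 3 F 5) := Subgroup.closure {MR, MH} ⊔ Subgroup.center ↥(SU 3 F 5)
  let TW : Subgroup ↥(SU 3 F 5) := TG.map (MonoidHom.fst _ _)
  have hWT : W ≤ TW := sup_le ((Subgroup.closure_le _).2 (by
      rintro _ (rfl | rfl)
      · exact ⟨_, hTR, rfl⟩
      · exact ⟨_, hTH, rfl⟩)) fun z hz => ⟨_, hcenter z hz, rfl⟩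
  choose θf hθf using fun g : TW => (show ∃ p, (g.1, p) ∈ TG by
    obtain ⟨⟨g', p⟩, h, e⟩ := g.2
    exact ⟨p, by rw [← show g' = g.1 from e]; exact h⟩)
  let θW : W →* Equiv.Perm (Fin 50) :=
    { toFun := fun g => θf ⟨g.1, hWT g.2⟩
      map_one' := huniq (hθf ⟨1, hWT (one_mem _)⟩) TG.one_mem
      map_mul' := fun g h => huniq (hθf ⟨g.1 * h.1, hWT (mul_mem g.2 h.2)⟩)
        (TG.mul_mem (hθf ⟨g.1, hWT g.2⟩) (hθf ⟨h.1, hWT h.2⟩)) }
  have hθ : ∀ (g : W) (p : Equiv.Perm (Fin 50)), (g.1, p) ∈ TG → θW g = p := fun g p h =>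
    huniq (hθf ⟨g.1, hWT g.2⟩) h
  have hRW : MR ∈ W := Subgroup.mem_sup_left (Subgroup.subset_closure (by simp))
  have hHW : MH ∈ W := Subgroup.mem_sup_left (Subgroup.subset_closure (by simp))
  have hZW : Subgroup.center ↥(SU 3 F 5) ≤ W := le_sup_right
  have hker : (Subgroup.center ↥(SU 3 F 5)).subgroupOf W ≤ θW.ker := fun z hz =>
    hθ z 1 (hcenter z.1 (Subgroup.mem_subgroupOf.1 hz))
  have hrange : fiftyGroup ≤ θW.range := (Subgroup.closure_le _).2 (by
    rintro _ (rfl | rfl)
    · exact ⟨⟨MR, hRW⟩, hθ _ _ hTR⟩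
    · exact ⟨⟨MH, hHW⟩, hθ _ _ hTH⟩)
  have hZ3 : Nat.card (Subgroup.center ↥(SU 3 F 5)) = 3 := card_center_five hF
  have hWtop : W = ⊤ := by
    by_contra hne
    have hidx : 50 ≤ W.index := by
      have hcomap : (W.map (QuotientGroup.mk' (Subgroup.center ↥(SU 3 F 5)))).comap
          (QuotientGroup.mk' _) = W := by
        rw [Subgroup.comap_map_eq, QuotientGroup.ker_mk', sup_eq_left.2 hZW]
      rw [← hcomap, Subgroup.index_comap_of_surjective _ (QuotientGroup.mk'_surjective _)]
      refine (Cfsg.Agent.S2149.result hF).1 _ fun h => hne ?_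
      rw [← hcomap, h, Subgroup.comap_top]
    have h1 : Nat.card W * W.index = 378000 := by
      rw [Subgroup.card_mul_index, card_SU_five hF]
    have h2 : Nat.card θW.ker * Nat.card θW.range = Nat.card W := by
      rw [← Subgroup.index_ker, Subgroup.card_mul_index]
    have h3 : 3 ≤ Nat.card θW.ker := by
      refine le_trans (le_of_eq ?_) (Subgroup.card_le_of_le hker)
      exact hZ3.symm.trans (Nat.card_congr (Subgroup.subgroupOfEquivOfLe hZW).toEquiv).symm
    have h4 : 4200 ≤ Nat.card θW.range := fiftyGroup_large.trans (Subgroup.card_le_of_le hrange)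
    nlinarith
  let θ : ↥(SU 3 F 5) →* Equiv.Perm (Fin 50) :=
    θW.comp ((MonoidHom.id _).codRestrict W fun g => by rw [hWtop]; exact Subgroup.mem_top g)
  have hθeq : ∀ g p, (g, p) ∈ TG → θ g = p := fun g p h => hθ _ p h
  have hθrange : θ.range = fiftyGroup := by
    have h1 : (Subgroup.center ↥(SU 3 F 5)).map θ = ⊥ := (Subgroup.eq_bot_iff_forall _).2 (by
      rintro _ ⟨z, hz, rfl⟩; exact hθeq z 1 (hcenter z hz))
    have h2 : ({MR, MH} : Set ↥(SU 3 F 5)).image θ = {gR, gH} := by
      rw [Set.image_pair, hθeq _ _ hTR, hθeq _ _ hTH]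
    rw [MonoidHom.range_eq_map, ← hWtop, Subgroup.map_sup, h1, sup_bot_eq, MonoidHom.map_closure,
      h2]
    rfl
  have hθker : θ.ker = Subgroup.center ↥(SU 3 F 5) := by
    refine le_antisymm ?_ fun z hz => hθeq z 1 (hcenter z hz)
    rcases le_center_or_eq_top hF' le_rfl (by norm_num) θ.ker with h | h
    · exact h
    · exfalso
      have h4 := fiftyGroup_large
      rw [← hθrange, ← Subgroup.index_ker, h, Subgroup.index_top] at h4
      omega
  have hcard : Nat.card fiftyGroup = 126000 := by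
    rw [← hθrange, ← Subgroup.index_ker, hθker]
    have := Subgroup.card_mul_index (Subgroup.center ↥(SU 3 F 5))
    rw [hZ3, card_SU_five hF] at this
    omega
  refine ⟨hcard, ⟨((QuotientGroup.quotientMulEquivOfEq hθker.symm).trans
    (QuotientGroup.quotientKerEquivRange θ)).trans (MulEquiv.subgroupCongr hθrange)⟩⟩

end CfsgLib.HSFifty
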