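import Mathlib
import Cfsg.Agent.HSFifty.Standard
import Cfsg.Agent.HSFifty.Unitary

/-! Transfer to any configuration. -/

set_option autoImplicit false
set_option linter.style.haveILetI false

namespace CfsgLib.HSFifty

open Cfsg CfsgLib.Leech CfsgLib.LeechTriples

theorem hs352 (v w : leechLattice) (hv : nrm v = 48) (hw : nrm w = 48) (hvw : ip v w = -32)
    (F : Type) [Field F] [Fintype F] (hF : Fintype.card F = 25) :
    (set352 v w).ncard = 352 ∧ (∀ x ∈ set352 v w, -w - x ∈ set352 v w) ∧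
      (∀ x ∈ set352 v w, ∀ x' ∈ set352 v w, ∃ g : Co0, g • v = v ∧ g • w = w ∧ g • x = x') ∧
      ∀ x ∈ set352 v w, Nonempty (tripleStab v w x ≃* PSU 3 F 5) := by
  obtain ⟨hΓ, ⟨eΓ⟩⟩ := psu_fifty (F := F) hF
  obtain ⟨horb, ⟨e0⟩⟩ := tripleStab_data hΓ
  obtain ⟨f1, f2, f3, f4, f5, -⟩ := base_facts
  obtain ⟨s1, s2, -⟩ := hs_sum hv hw hvw
  obtain ⟨k, k1, k2⟩ := exists_hsPair (v + w) v c0 v0 s1 hv s2 f4 f1 f5
  have k3 : k • w = w0 := eq_of_sum k1 k2
  have key : ∀ x ∈ set352 v w, ∃ g : Co0, g • v = v0 ∧ g • w = w0 ∧ g • x = x0 := by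
    intro x hx
    obtain ⟨h1, h2, h3⟩ := mem_set352.1 hx
    have hmem : k • x ∈ set352 v0 w0 := mem_set352.2 ⟨(nrm_smul k x).trans h1, by
      rw [← k2, ip_smul]; exact h2, by rw [← k3, ip_smul]; exact h3⟩
    rw [← horb] at hmem
    obtain ⟨g, hg⟩ := hmem
    have gv : g.1 • v0 = v0 := g.2.1
    have gw : g.1 • w0 = w0 := by
      rw [show w0 = c0 - v0 from rfl, co0_map_sub, gv, show g.1 • c0 = c0 from g.2.2]
    refine ⟨g.1⁻¹ * k, ?_, ?_, ?_⟩ <;> rw [mul_smul, inv_smul_eq_iff]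
    · rw [k2, gv]
    · rw [k3, gw]
    · exact hg.symm
  refine ⟨ncard_set352 hv hw hvw, fun x hx => ?_, fun x hx x' hx' => ?_, fun x hx => ?_⟩
  · obtain ⟨h1, h2, h3⟩ := mem_set352.1 hx
    obtain ⟨e1, e2, e3, -⟩ := partner_bounds hv hw hvw h1 h3
    exact mem_set352.2 ⟨e1, by rw [e3, h2]; norm_num, e2⟩
  · obtain ⟨g, g1, g2, g3⟩ := key x hx
    obtain ⟨g', g1', g2', g3'⟩ := key x' hx'
    refine ⟨g'⁻¹ * g, ?_, ?_, ?_⟩ <;> rw [mul_smul, inv_smul_eq_iff]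
    · rw [g1, g1']
    · rw [g2, g2']
    · rw [g3, g3']
  · obtain ⟨g, g1, g2, g3⟩ := key x hx
    have e : tripleStab v w x ≃* tripleStab v0 w0 x0 :=
      { toFun := fun a => ⟨g * a.1 * g⁻¹, by
          obtain ⟨⟨a1, a2⟩, a3⟩ := a.2
          refine ⟨⟨?_, ?_⟩, ?_⟩ <;> show (g * a.1 * g⁻¹) • _ = _
          · rw [← g1, mul_smul, mul_smul, inv_smul_smul, show a.1 • v = v from a1]
          · rw [← g2, mul_smul, mul_smul, inv_smul_smul, show a.1 • w = w from a2]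
          · rw [← g3, mul_smul, mul_smul, inv_smul_smul, show a.1 • x = x from a3]⟩
        invFun := fun a => ⟨g⁻¹ * a.1 * g, by
          obtain ⟨⟨a1, a2⟩, a3⟩ := a.2
          refine ⟨⟨?_, ?_⟩, ?_⟩ <;> show (g⁻¹ * a.1 * g) • _ = _
          · rw [mul_smul, mul_smul, g1, show a.1 • v0 = v0 from a1, ← g1, inv_smul_smul]
          · rw [mul_smul, mul_smul, g2, show a.1 • w0 = w0 from a2, ← g2, inv_smul_smul]
          · rw [mul_smul, mul_smul, g3, show a.1 • x0 = x0 from a3, ← g3, inv_smul_smul]⟩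
        left_inv := fun a => Subtype.ext (show g⁻¹ * (g * a.1 * g⁻¹) * g = a.1 by group)
        right_inv := fun a => Subtype.ext (show g * (g⁻¹ * a.1 * g) * g⁻¹ = a.1 by group)
        map_mul' := fun a b => Subtype.ext
          (show g * (a.1 * b.1) * g⁻¹ = g * a.1 * g⁻¹ * (g * b.1 * g⁻¹) by group) }
    exact ⟨(e.trans e0).trans eΓ.symm⟩

end CfsgLib.HSFifty
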